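import Mathlib

/-! Ladder KJ4, rung CNT (helper30). -/

set_option autoImplicit false

namespace Cfsg.Agent.Lib.Helper27.KJ4

variable {G : Type*} [Group G]

theorem card_inf_ge [Finite G] (A A1 V : Subgroup G) [V.Normal] (h : A1 ≤ A ⊔ V) :
    Nat.card A1 * Nat.card (A ⊓ V : Subgroup G) ≤ Nat.card (A ⊓ A1 : Subgroup G) * Nat.card V := by
  have e1 : Nat.card (A ⊓ A1 : Subgroup G) * A.relIndex A1 = Nat.card A1 := by
    have := Subgroup.relIndex_mul_relIndex (⊥ : Subgroup G) (A ⊓ A1) A1 bot_le inf_le_right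
    rwa [Subgroup.relIndex_bot_left, Subgroup.relIndex_bot_left, Subgroup.inf_relIndex_right] at this
  have e2 : Nat.card A * A.relIndex (A ⊔ V) = Nat.card (A ⊔ V : Subgroup G) := by
    have := Subgroup.relIndex_mul_relIndex (⊥ : Subgroup G) A (A ⊔ V) bot_le le_sup_left
    rwa [Subgroup.relIndex_bot_left, Subgroup.relIndex_bot_left] at this
  have e3 : Nat.card V * V.relIndex A = Nat.card (A ⊔ V : Subgroup G) := by
    have := Subgroup.relIndex_mul_relIndex (⊥ : Subgroup G) V (A ⊔ V) bot_le le_sup_right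
    rwa [Subgroup.relIndex_bot_left, Subgroup.relIndex_bot_left, Subgroup.relIndex_sup_right] at this
  have e4 : Nat.card (A ⊓ V : Subgroup G) * V.relIndex A = Nat.card A := by
    have := Subgroup.relIndex_mul_relIndex (⊥ : Subgroup G) (A ⊓ V) A bot_le inf_le_left
    rwa [Subgroup.relIndex_bot_left, Subgroup.relIndex_bot_left, Subgroup.inf_relIndex_left] at this
  have hw : 0 < V.relIndex A := by
    rcases Nat.eq_zero_or_pos (V.relIndex A) with h0 | h0
    · rw [h0, mul_zero] at e4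
      exact absurd e4.symm (Nat.card_pos (α := A)).ne'
    · exact h0
  have hr0 : A.relIndex (A ⊔ V) ≠ 0 := by
    intro h0
    rw [h0, mul_zero] at e2
    exact absurd e2.symm (Nat.card_pos (α := (A ⊔ V : Subgroup G))).ne'
  have hle : A.relIndex A1 ≤ A.relIndex (A ⊔ V) := Subgroup.relIndex_le_of_le_right h hr0
  have e5 : Nat.card (A ⊓ V : Subgroup G) * A.relIndex (A ⊔ V) = Nat.card V := by
    apply Nat.eq_of_mul_eq_mul_right hw
    calc Nat.card (A ⊓ V : Subgroup G) * A.relIndex (A ⊔ V) * V.relIndex A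
        = (Nat.card (A ⊓ V : Subgroup G) * V.relIndex A) * A.relIndex (A ⊔ V) := by ring
      _ = Nat.card V * V.relIndex A := by rw [e4, e2, e3]
  calc Nat.card A1 * Nat.card (A ⊓ V : Subgroup G)
      = Nat.card (A ⊓ A1 : Subgroup G) * (Nat.card (A ⊓ V : Subgroup G) * A.relIndex A1) := by
        rw [← e1]; ring
    _ ≤ Nat.card (A ⊓ A1 : Subgroup G) * (Nat.card (A ⊓ V : Subgroup G) * A.relIndex (A ⊔ V)) :=
        Nat.mul_le_mul_left _ (Nat.mul_le_mul_left _ hle)
    _ = Nat.card (A ⊓ A1 : Subgroup G) * Nat.card V := by rw [e5]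

end Cfsg.Agent.Lib.Helper27.KJ4
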