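import Cfsg.Agent.Lib.Helper27.KJ4.Defs

/-! Ladder KJ4, rung COMM (helper41). -/

set_option autoImplicit false

namespace Cfsg.Agent.Lib.Helper27.KJ4

open scoped commutatorElement

variable {G : Type*} [Group G]

theorem Ctx.comm {p : ℕ} (C : Ctx p G) (a b : G) (hab : a * b = b * a)
    (hb : ∀ w ∈ C.V2, b * w = w * b) : a * ⁅C.v0, b⁆ = ⁅C.v0, b⁆ * a := by
  have hu : ⁅C.v0, b⁆ ∈ C.V2 := C.hv0c b
  have hc : ⁅C.v0, a⁆ ∈ C.V2 := C.hv0c a
  have e1 : C.v0 * b * C.v0⁻¹ = ⁅C.v0, b⁆ * b := by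
    rw [commutatorElement_def, inv_mul_cancel_right]
  have e2 : C.v0 * a * C.v0⁻¹ = ⁅C.v0, a⁆ * a := by
    rw [commutatorElement_def, inv_mul_cancel_right]
  generalize ⁅C.v0, b⁆ = u at *
  generalize ⁅C.v0, a⁆ = c at *
  have e3 : (c * a) * (u * b) = (u * b) * (c * a) := by
    rw [← e1, ← e2]
    calc C.v0 * a * C.v0⁻¹ * (C.v0 * b * C.v0⁻¹) = C.v0 * (a * b) * C.v0⁻¹ := by group
      _ = C.v0 * (b * a) * C.v0⁻¹ := by rw [hab]
      _ = C.v0 * b * C.v0⁻¹ * (C.v0 * a * C.v0⁻¹) := by group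
  have e4 : b * c = c * b := hb c hc
  have e5 : u * c = c * u := C.hV.1 u (C.hV2V hu) c (C.hV2V hc)
  have e6 : c * (a * u) * b = c * (u * a) * b := by
    calc c * (a * u) * b = (c * a) * (u * b) := by simp only [mul_assoc]
      _ = (u * b) * (c * a) := e3
      _ = u * (b * c) * a := by simp only [mul_assoc]
      _ = u * (c * b) * a := by rw [e4]
      _ = (u * c) * (b * a) := by simp only [mul_assoc]
      _ = (c * u) * (a * b) := by rw [e5, hab]
      _ = c * (u * a) * b := by simp only [mul_assoc]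
  exact mul_left_cancel (mul_right_cancel e6)

end Cfsg.Agent.Lib.Helper27.KJ4
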