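import Cfsg.Agent.Lib.Helper27.KJ4.Defs

/-! Ladder KJ4, rung CONJ (helper41). -/

set_option autoImplicit false

namespace Cfsg.Agent.Lib.Helper27.KJ4

variable {G : Type*} [Group G]

theorem conj_ea_map {H : Type*} [Group H] {p : ℕ} {A : Subgroup G} (hA : EA p A) (f : G →* H) :
    EA p (A.map f) := by
  refine ⟨?_, ?_⟩
  · rintro _ ⟨a, ha, rfl⟩ _ ⟨b, hb, rfl⟩
    rw [← map_mul, ← map_mul, hA.1 a ha b hb]
  · rintro _ ⟨a, ha, rfl⟩
    rw [← map_pow, hA.2 a ha, map_one]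

theorem MaxEA.conj [Finite G] {p : ℕ} {A : Subgroup G} (hA : MaxEA p A) (g : G) :
    MaxEA p (A.map (MulAut.conj g).toMonoidHom) := by
  refine ⟨conj_ea_map hA.1 _, ?_⟩
  intro B hB
  rw [Subgroup.card_map_of_injective (MulAut.conj g).injective]
  exact hA.2 B hB

end Cfsg.Agent.Lib.Helper27.KJ4
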