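import Mathlib

/-! Ladder KJ4 (helper27): S0122 (p odd: E_{p^4} ≤ P ⟹ normal E_{p^4}) and S1338. Definitions. -/

set_option autoImplicit false

namespace Cfsg.Agent.Lib.Helper27.KJ4

open scoped commutatorElement

variable {G : Type*} [Group G]

/-- elementary abelian, elementwise form -/
def EA (p : ℕ) (A : Subgroup G) : Prop :=
  (∀ a ∈ A, ∀ b ∈ A, a * b = b * a) ∧ ∀ a ∈ A, a ^ p = 1

/-- elementary abelian of largest order -/
def MaxEA (p : ℕ) (A : Subgroup G) : Prop :=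
  EA p A ∧ ∀ B : Subgroup G, EA p B → Nat.card B ≤ Nat.card A

/-- the configuration: `V` normal elementary abelian of order `p^3` containing every element of order `p`
of its centralizer, `V2 ≤ V` normal of order `p^2`, `v0 ∈ V \ V2` with `[v0, G] ≤ V2`. -/
structure Ctx (p : ℕ) (H : Type*) [Group H] where
  V : Subgroup H
  V2 : Subgroup H
  v0 : H
  hVn : V.Normal
  hV2n : V2.Normal
  hV2V : V2 ≤ V
  hV : EA p V
  hVcard : Nat.card V = p ^ 3
  hV2card : Nat.card V2 = p ^ 2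
  hv0 : v0 ∈ V
  hv0' : v0 ∉ V2
  hv0c : ∀ g : H, ⁅v0, g⁆ ∈ V2
  hAlp : ∀ x : H, (∀ v ∈ V, x * v = v * x) → x ^ p = 1 → x ∈ V

end Cfsg.Agent.Lib.Helper27.KJ4
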