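import Cfsg.Agent.Lib.Helper3.OmegaCentralizer
import Cfsg.Agent.Lib.Helper27.KJ4.Defs

/-! Ladder KJ4, rung CTX (helper41). -/

set_option autoImplicit false

namespace Cfsg.Agent.Lib.Helper27.KJ4

open scoped commutatorElement

variable {G : Type*} [Group G]

theorem exists_ctx [Finite G] {p : ℕ} [Fact p.Prime] (hp2 : p ≠ 2) (hG : IsPGroup p G) (V : Subgroup G)
    (hVn : V.Normal) (hV : EA p V) (hVcard : Nat.card V = p ^ 3)
    (hmax : ∀ B : Subgroup G, B.Normal → EA p B → V ≤ B → B = V) : Nonempty (Ctx p G) := by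
  have hp : p.Prime := Fact.out
  obtain ⟨V2, hV2V, hV2n, hV2c⟩ := Cfsg.Agent.Lib.Helper3.exists_normal_le_card_eq (p := p) 2 G hG V
    hVn (by rw [hVcard]; exact pow_dvd_pow p (by norm_num))
  have hne : ¬ V ≤ V2 := by
    intro h
    have h1 := Subgroup.card_le_of_le h
    rw [hVcard, hV2c] at h1
    exact absurd h1 (not_le.2 (Nat.pow_lt_pow_right hp.one_lt (by norm_num)))
  obtain ⟨v0, hv0, hv0', _, hv0c⟩ := Cfsg.Agent.Lib.Helper3.central_step hG V2 V hne
  have hp1 : p ^ 1 ≠ 2 := by rwa [pow_one]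
  have hAlp : ∀ x : G, (∀ v ∈ V, x * v = v * x) → x ^ p = 1 → x ∈ V := by
    intro x hx hxp
    by_contra hxA
    have hx' : x ∈ Subgroup.centralizer (V : Set G) := by
      rw [Subgroup.mem_centralizer_iff]
      intro v hv
      exact (hx v hv).symm
    obtain ⟨B, hBn, hBc, hBe, hAB, hne⟩ :=
      Cfsg.Agent.Lib.Helper3.exists_larger_normal_abelian hG 1 hp1 V hV.1
        (by simpa using hV.2) x hx' (by simpa using hxp) hxA
    exact hne (hmax B hBn ⟨hBc, by simpa using hBe⟩ hAB)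
  exact ⟨{ V := V, V2 := V2, v0 := v0, hVn := hVn, hV2n := hV2n, hV2V := hV2V, hV := hV,
           hVcard := hVcard, hV2card := hV2c, hv0 := hv0, hv0' := hv0', hv0c := hv0c,
           hAlp := hAlp }⟩

end Cfsg.Agent.Lib.Helper27.KJ4
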