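import Cfsg.Agent.Lib.Helper27.KJ4.Defs

/-! Ladder KJ4, rung GEN (helper41). -/

set_option autoImplicit false

namespace Cfsg.Agent.Lib.Helper27.KJ4

variable {G : Type*} [Group G]

theorem Ctx.gen [Finite G] {p : ℕ} [Fact p.Prime] (C : Ctx p G) (c : G) (hc : c ∈ C.V) (hc' : c ∉ C.V2)
    (d : G) (h2 : ∀ w ∈ C.V2, d * w = w * d) (hd : d * c = c * d) : ∀ v ∈ C.V, d * v = v * d := by
  have hp : p.Prime := Fact.out
  have hK1 : C.V2 ≤ C.V ⊓ Subgroup.centralizer {d} := by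
    intro w hw
    refine Subgroup.mem_inf.2 ⟨C.hV2V hw, ?_⟩
    rw [Subgroup.mem_centralizer_singleton_iff]
    exact (h2 w hw).symm
  have hK2 : c ∈ C.V ⊓ Subgroup.centralizer {d} := by
    refine Subgroup.mem_inf.2 ⟨hc, ?_⟩
    rw [Subgroup.mem_centralizer_singleton_iff]
    exact hd.symm
  have hlt : Nat.card C.V2 < Nat.card (C.V ⊓ Subgroup.centralizer {d} : Subgroup G) := by
    by_contra hcon
    have := Subgroup.eq_of_le_of_card_ge hK1 (not_lt.1 hcon)
    exact hc' (this ▸ hK2)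
  have hdvd : Nat.card (C.V ⊓ Subgroup.centralizer {d} : Subgroup G) ∣ p ^ 3 := by
    rw [← C.hVcard]
    exact Subgroup.card_dvd_of_le inf_le_left
  obtain ⟨j, hj, hcard⟩ := (Nat.dvd_prime_pow hp).1 hdvd
  rw [C.hV2card, hcard] at hlt
  have hj2 : 2 < j := (Nat.pow_lt_pow_iff_right hp.one_lt).1 hlt
  have hj3 : j = 3 := by omega
  have hKV : C.V ⊓ Subgroup.centralizer {d} = C.V :=
    Subgroup.eq_of_le_of_card_ge inf_le_left (by rw [hcard, hj3, C.hVcard])
  intro v hv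
  rw [← hKV] at hv
  have := (Subgroup.mem_inf.1 hv).2
  rw [Subgroup.mem_centralizer_singleton_iff] at this
  exact this.symm

/-- same with a second subgroup of order p^2 (same proof). -/
theorem Ctx.gen' [Finite G] {p : ℕ} [Fact p.Prime] (C : Ctx p G) (W : Subgroup G) (hW : W ≤ C.V)
    (hW' : ¬ W ≤ C.V2) (d : G) (h2 : ∀ w ∈ C.V2, d * w = w * d) (hd : ∀ w ∈ W, d * w = w * d) :
    ∀ v ∈ C.V, d * v = v * d := by
  obtain ⟨c, hcW, hc'⟩ := SetLike.not_le_iff_exists.1 hW'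
  exact C.gen c (hW hcW) hc' d h2 (hd c hcW)

end Cfsg.Agent.Lib.Helper27.KJ4
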