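import Mathlib

/-! Ladder KJ4, rung HOM (helper30): the commutator homomorphism `b ↦ ⁅x, b⁆`. -/

set_option autoImplicit false

namespace Cfsg.Agent.Lib.Helper27.KJ4

open scoped commutatorElement

variable {G : Type*} [Group G]

/-- the commutator homomorphism `B →* Z`, `b ↦ ⁅x, b⁆`. -/
noncomputable def homF (B Z : Subgroup G) (x : G) (h1 : ∀ b ∈ B, ⁅x, b⁆ ∈ Z)
    (h2 : ∀ b ∈ B, ∀ z ∈ Z, b * z = z * b) : B →* Z where
  toFun b := ⟨⁅x, (b : G)⁆, h1 b b.2⟩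
  map_one' := by
    ext
    simp
  map_mul' a b := by
    ext
    have h := h2 a a.2 _ (h1 b b.2)
    have e1 : ⁅x, (a : G) * (b : G)⁆ = ⁅x, (a : G)⁆ * ((a : G) * ⁅x, (b : G)⁆ * (a : G)⁻¹) := by
      simp only [commutatorElement_def]
      group
    simp only [Subgroup.coe_mul]
    rw [e1, h, mul_inv_cancel_right]

theorem homF_ker (B Z : Subgroup G) (x : G) (h1 : ∀ b ∈ B, ⁅x, b⁆ ∈ Z)
    (h2 : ∀ b ∈ B, ∀ z ∈ Z, b * z = z * b) :
    (homF B Z x h1 h2).ker = (B ⊓ Subgroup.centralizer {x} : Subgroup G).subgroupOf B := by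
  ext b
  rw [MonoidHom.mem_ker, Subgroup.mem_subgroupOf, Subgroup.mem_inf, Subgroup.mem_centralizer_iff]
  constructor
  · intro h
    have h' : ⁅x, (b : G)⁆ = 1 := congrArg Subtype.val h
    refine ⟨b.2, ?_⟩
    intro y hy
    rw [Set.mem_singleton_iff] at hy
    subst hy
    exact commutatorElement_eq_one_iff_mul_comm.mp h'
  · rintro ⟨-, h⟩
    ext
    exact commutatorElement_eq_one_iff_mul_comm.mpr (h x rfl)

theorem homF_card [Finite G] (B Z : Subgroup G) (x : G) (h1 : ∀ b ∈ B, ⁅x, b⁆ ∈ Z)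
    (h2 : ∀ b ∈ B, ∀ z ∈ Z, b * z = z * b) :
    Nat.card B = Nat.card (B ⊓ Subgroup.centralizer {x} : Subgroup G) *
      Nat.card (homF B Z x h1 h2).range := by
  have e := Subgroup.card_mul_index (homF B Z x h1 h2).ker
  rw [Subgroup.index_ker, homF_ker] at e
  rw [← e]
  congr 1
  exact Nat.card_congr (Subgroup.subgroupOfEquivOfLe
    (inf_le_left : (B ⊓ Subgroup.centralizer {x} : Subgroup G) ≤ B)).toEquiv

theorem hom_card [Finite G] (B Z : Subgroup G) (x : G) (h1 : ∀ b ∈ B, ⁅x, b⁆ ∈ Z)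
    (h2 : ∀ b ∈ B, ∀ z ∈ Z, b * z = z * b) :
    Nat.card B ≤ Nat.card (B ⊓ Subgroup.centralizer {x} : Subgroup G) * Nat.card Z := by
  rw [homF_card B Z x h1 h2]
  exact Nat.mul_le_mul_left _ (Subgroup.card_le_card_group _)

theorem hom_surj [Finite G] (B Z : Subgroup G) (x : G) (h1 : ∀ b ∈ B, ⁅x, b⁆ ∈ Z)
    (h2 : ∀ b ∈ B, ∀ z ∈ Z, b * z = z * b)
    (hc : Nat.card B = Nat.card (B ⊓ Subgroup.centralizer {x} : Subgroup G) * Nat.card Z) :
    ∀ z ∈ Z, ∃ b ∈ B, ⁅x, b⁆ = z := by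
  have e := homF_card B Z x h1 h2
  rw [hc] at e
  have hpos : 0 < Nat.card (B ⊓ Subgroup.centralizer {x} : Subgroup G) := Nat.card_pos
  have e' : Nat.card Z = Nat.card (homF B Z x h1 h2).range := Nat.eq_of_mul_eq_mul_left hpos e
  have htop : (homF B Z x h1 h2).range = ⊤ := Subgroup.eq_top_of_card_eq _ e'.symm
  intro z hz
  have : (⟨z, hz⟩ : Z) ∈ (homF B Z x h1 h2).range := by rw [htop]; trivial
  obtain ⟨b, hb⟩ := this
  exact ⟨b, b.2, congrArg Subtype.val hb⟩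

end Cfsg.Agent.Lib.Helper27.KJ4
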