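import Mathlib
import Cfsg.Agent.Lib.Helper3.OmegaCentralizer
import Cfsg.Agent.Lib.Helper3.NormalSeries
import Cfsg.Agent.Lib.Helper27.KJ4.HOM

/-! Ladder KJ4, rung IDX (helper30). -/

set_option autoImplicit false

namespace Cfsg.Agent.Lib.Helper27.KJ4

open scoped commutatorElement

variable {G : Type*} [Group G]

/-- a subgroup of order `p ^ (k+1)` is generated by a subgroup of order `p ^ k` and any element outside. -/
theorem idx_le [Finite G] {p : ℕ} [Fact p.Prime] {k : ℕ} {Z U C : Subgroup G} (hZ : Nat.card Z = p ^ k)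
    (hU : Nat.card U = p ^ (k + 1)) (hZU : Z ≤ U) {e : G} (heU : e ∈ U) (heZ : e ∉ Z) (hZC : Z ≤ C)
    (heC : e ∈ C) : U ≤ C := by
  have hp : p.Prime := Fact.out
  have hZD : Z ≤ U ⊓ C := le_inf hZU hZC
  have hlt : p ^ k < Nat.card (U ⊓ C : Subgroup G) := by
    by_contra hcon
    rw [not_lt, ← hZ] at hcon
    have := Subgroup.eq_of_le_of_card_ge hZD hcon
    exact heZ (this ▸ (Subgroup.mem_inf.mpr ⟨heU, heC⟩))
  have hdvd : Nat.card (U ⊓ C : Subgroup G) ∣ p ^ (k + 1) := hU ▸ Subgroup.card_dvd_of_le inf_le_left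
  obtain ⟨i, hi, hci⟩ := (Nat.dvd_prime_pow hp).mp hdvd
  rw [hci] at hlt
  have hki : k < i := (Nat.pow_lt_pow_iff_right hp.one_lt).mp hlt
  have hi2 : i = k + 1 := by omega
  have : U ⊓ C = U := Subgroup.eq_of_le_of_card_ge inf_le_left (by rw [hci, hU, hi2])
  exact this ▸ inf_le_right

theorem idx [Finite G] {p : ℕ} [Fact p.Prime] (hG : IsPGroup p G) (U : Subgroup G) [U.Normal]
    (hU : Nat.card U = p ^ 2) (A : Subgroup G) :
    Nat.card A ≤ p * Nat.card (A ⊓ Subgroup.centralizer (U : Set G) : Subgroup G) := by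
  have hp : p.Prime := Fact.out
  have hUne : U ≠ ⊥ := by
    intro h
    rw [h, Subgroup.card_bot] at hU
    have : 1 < p ^ 2 := Nat.one_lt_pow (by norm_num) hp.one_lt
    omega
  obtain ⟨z, hzU, hzc, hzo⟩ := Cfsg.Agent.Lib.Helper3.exists_central_order_p hG U hUne
  have hZc : Subgroup.zpowers z ≤ Subgroup.center G := (Subgroup.zpowers_le).mpr hzc
  haveI hZn : (Subgroup.zpowers z).Normal := Cfsg.Agent.Lib.Helper3.normal_of_le_center' hZc
  have hZcard : Nat.card (Subgroup.zpowers z) = p ^ 1 := by rw [Nat.card_zpowers, hzo, pow_one]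
  have hZU : Subgroup.zpowers z ≤ U := (Subgroup.zpowers_le).mpr hzU
  have hne : ¬ U ≤ Subgroup.zpowers z := by
    intro h
    have := Subgroup.card_le_of_le h
    rw [hU, hZcard] at this
    have h2 : p ^ 1 < p ^ 2 := Nat.pow_lt_pow_right hp.one_lt (by norm_num)
    omega
  obtain ⟨e, heU, heZ, -, hec⟩ := Cfsg.Agent.Lib.Helper3.central_step hG (Subgroup.zpowers z) U hne
  have h2 : ∀ b ∈ A, ∀ w ∈ Subgroup.zpowers z, b * w = w * b := by
    intro b _ w hw
    exact (Subgroup.mem_center_iff.mp (hZc hw) b)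
  have hcard := hom_card A (Subgroup.zpowers z) e (fun b _ => hec b) h2
  rw [hZcard, pow_one, mul_comm] at hcard
  refine hcard.trans (Nat.mul_le_mul_left _ (Subgroup.card_le_of_le ?_))
  intro x hx
  obtain ⟨hxA, hxe⟩ := Subgroup.mem_inf.mp hx
  refine Subgroup.mem_inf.mpr ⟨hxA, ?_⟩
  have hxe' : e * x = x * e := Subgroup.mem_centralizer_iff.mp hxe e rfl
  have hle : U ≤ Subgroup.centralizer {x} := by
    refine idx_le hZcard hU hZU heU heZ ?_ ?_
    · intro w hw
      rw [Subgroup.mem_centralizer_iff]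
      intro y hy
      rw [Set.mem_singleton_iff] at hy
      subst hy
      exact (Subgroup.mem_center_iff.mp (hZc hw) y)
    · rw [Subgroup.mem_centralizer_iff]
      intro y hy
      rw [Set.mem_singleton_iff] at hy
      subst hy
      exact hxe'.symm
  rw [Subgroup.mem_centralizer_iff]
  intro u hu
  exact (Subgroup.mem_centralizer_iff.mp (hle hu) x rfl).symm

end Cfsg.Agent.Lib.Helper27.KJ4
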