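import Cfsg.Agent.Lib.Helper27.KJ4.Defs

/-! Ladder KJ4, rung MAXC (helper41). -/

set_option autoImplicit false

namespace Cfsg.Agent.Lib.Helper27.KJ4

variable {G : Type*} [Group G]

theorem maxc_ea {p : ℕ} {A : Subgroup G} (hA : EA p A) (x : G) (hx : x ^ p = 1)
    (hc : ∀ a ∈ A, x * a = a * x) : EA p (A ⊔ Subgroup.zpowers x) := by
  have h1 : A ⊔ Subgroup.zpowers x ≤
      Subgroup.centralizer (A : Set G) ⊓ Subgroup.centralizer {x} := by
    apply sup_le
    · intro a ha
      refine Subgroup.mem_inf.2 ⟨?_, ?_⟩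
      · rw [Subgroup.mem_centralizer_iff]
        intro b hb
        exact hA.1 b hb a ha
      · rw [Subgroup.mem_centralizer_singleton_iff]
        exact (hc a ha).symm
    · rw [Subgroup.zpowers_le]
      refine Subgroup.mem_inf.2 ⟨?_, ?_⟩
      · rw [Subgroup.mem_centralizer_iff]
        intro b hb
        exact (hc b hb).symm
      · rw [Subgroup.mem_centralizer_singleton_iff]
  have h2 : ∀ g ∈ A ⊔ Subgroup.zpowers x, ∀ h ∈ A ⊔ Subgroup.zpowers x, g * h = h * g := by
    intro g hg
    have h3 : A ⊔ Subgroup.zpowers x ≤ Subgroup.centralizer {g} := by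
      apply sup_le
      · intro a ha
        rw [Subgroup.mem_centralizer_singleton_iff]
        have := (Subgroup.mem_inf.1 (h1 hg)).1
        rw [Subgroup.mem_centralizer_iff] at this
        exact this a ha
      · rw [Subgroup.zpowers_le, Subgroup.mem_centralizer_singleton_iff]
        have := (Subgroup.mem_inf.1 (h1 hg)).2
        rw [Subgroup.mem_centralizer_singleton_iff] at this
        exact this.symm
    intro h hh
    have := h3 hh
    rw [Subgroup.mem_centralizer_singleton_iff] at this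
    exact this.symm
  refine ⟨h2, ?_⟩
  let T : Subgroup G :=
    { carrier := {g | g ∈ A ⊔ Subgroup.zpowers x ∧ g ^ p = 1}
      mul_mem' := by
        rintro g h ⟨hg, hg'⟩ ⟨hh, hh'⟩
        refine ⟨mul_mem hg hh, ?_⟩
        have : Commute g h := h2 g hg h hh
        rw [this.mul_pow, hg', hh', one_mul]
      one_mem' := ⟨one_mem _, one_pow _⟩
      inv_mem' := by
        rintro g ⟨hg, hg'⟩
        exact ⟨inv_mem hg, by rw [inv_pow, hg', inv_one]⟩ }
  have hT : A ⊔ Subgroup.zpowers x ≤ T := by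
    apply sup_le
    · intro a ha
      exact ⟨(le_sup_left : A ≤ _) ha, hA.2 a ha⟩
    · rw [Subgroup.zpowers_le]
      exact ⟨(le_sup_right : Subgroup.zpowers x ≤ _) (Subgroup.mem_zpowers x), hx⟩
  intro g hg
  exact (hT hg).2

theorem MaxEA.mem_of_comm [Finite G] {p : ℕ} {A : Subgroup G} (hA : MaxEA p A) (x : G) (hx : x ^ p = 1)
    (hc : ∀ a ∈ A, x * a = a * x) : x ∈ A := by
  have h1 := hA.2 _ (maxc_ea hA.1 x hx hc)
  have h2 : A = A ⊔ Subgroup.zpowers x := Subgroup.eq_of_le_of_card_ge le_sup_left h1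
  rw [h2]
  exact (le_sup_right : Subgroup.zpowers x ≤ _) (Subgroup.mem_zpowers x)

end Cfsg.Agent.Lib.Helper27.KJ4
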