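import Mathlib
import Cfsg.Agent.Lib.Helper27.KJ4.Defs
import Cfsg.Agent.Lib.Helper27.KJ4.MAXC
import Cfsg.Agent.Lib.Helper27.KJ4.HOM
import Cfsg.Agent.Lib.Helper27.KJ4.IDX
import Cfsg.Agent.Lib.Helper27.KJ4.GEN
import Cfsg.Agent.Lib.Helper27.KJ4.COMM

/-! Ladder KJ4, rung F1 (helper30). -/

set_option autoImplicit false

namespace Cfsg.Agent.Lib.Helper27.KJ4

open scoped commutatorElement

variable {G : Type*} [Group G]

/-- a proper subgroup of a group of order `p ^ (k+1)` has order at most `p ^ k`. -/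
theorem f1_card_le [Finite G] {p : ℕ} [Fact p.Prime] {k : ℕ} {W V : Subgroup G} (hWV : W ≤ V)
    (hne : W ≠ V) (hV : Nat.card V = p ^ (k + 1)) : ∃ i, i ≤ k ∧ Nat.card W = p ^ i := by
  have hp : p.Prime := Fact.out
  have hdvd : Nat.card W ∣ p ^ (k + 1) := hV ▸ Subgroup.card_dvd_of_le hWV
  obtain ⟨i, hi, hci⟩ := (Nat.dvd_prime_pow hp).mp hdvd
  refine ⟨i, ?_, hci⟩
  by_contra hcon
  have hi3 : i = k + 1 := by omega
  exact hne (Subgroup.eq_of_le_of_card_ge hWV (by rw [hci, hV, hi3]))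

theorem Ctx.f1 [Finite G] {p : ℕ} [Fact p.Prime] (hG : IsPGroup p G) (C : Ctx p G) {A : Subgroup G}
    (hA : MaxEA p A) (h4 : p ^ 4 ≤ Nat.card A) : A ⊓ C.V = C.V2 ∧ Nat.card A = p ^ 4 := by
  have hp : p.Prime := Fact.out
  have hp1 : 1 < p := hp.one_lt
  have hp0 : 0 < p := hp.pos
  have hV2n : C.V2.Normal := C.hV2n
  -- membership in V
  have hmemV : ∀ x ∈ A, (∀ v ∈ C.V, x * v = v * x) → x ∈ C.V := fun x hx h =>
    C.hAlp x h (hA.1.2 x hx)
  -- (1)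
  have hWne : A ⊓ C.V ≠ C.V := by
    intro h
    have hVA : C.V ≤ A := inf_eq_right.mp h
    have hAV : A ≤ C.V := fun a ha => hmemV a ha (fun v hv => hA.1.1 a ha v (hVA hv))
    have := Subgroup.card_le_of_le hAV
    rw [C.hVcard] at this
    have h34 : p ^ 3 < p ^ 4 := Nat.pow_lt_pow_right hp1 (by norm_num)
    omega
  obtain ⟨i, hi, hWi⟩ := f1_card_le (k := 2) inf_le_right hWne C.hVcard
  -- B
  set B : Subgroup G := A ⊓ Subgroup.centralizer (C.V2 : Set G) with hB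
  have hBA : B ≤ A := inf_le_left
  have hBc : ∀ b ∈ B, ∀ w ∈ C.V2, b * w = w * b := by
    intro b hb w hw
    exact (Subgroup.mem_centralizer_iff.mp (Subgroup.mem_inf.mp hb).2 w hw).symm
  -- (2)
  have h2 : B ⊓ Subgroup.centralizer {C.v0} ≤ A ⊓ C.V := by
    intro x hx
    obtain ⟨hxB, hxv⟩ := Subgroup.mem_inf.mp hx
    have hxv' : x * C.v0 = C.v0 * x := (Subgroup.mem_centralizer_iff.mp hxv C.v0 rfl).symm
    exact Subgroup.mem_inf.mpr ⟨hBA hxB, hmemV x (hBA hxB)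
      (C.gen C.v0 C.hv0 C.hv0' x (hBc x hxB) hxv')⟩
  -- (3)
  have h3 : ∀ b ∈ B, ⁅C.v0, b⁆ ∈ A ⊓ C.V2 := by
    intro b hb
    refine Subgroup.mem_inf.mpr ⟨?_, C.hv0c b⟩
    refine hA.mem_of_comm _ (C.hV.2 _ (C.hV2V (C.hv0c b))) ?_
    intro a ha
    exact (C.comm a b (hA.1.1 a ha b (hBA hb)) (hBc b hb)).symm
  have h3' : ∀ b ∈ B, ∀ z ∈ A ⊓ C.V2, b * z = z * b := by
    intro b hb z hz
    exact hA.1.1 b (hBA hb) z (Subgroup.mem_inf.mp hz).1
  -- (4)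
  have h4' : Nat.card B ≤ Nat.card (A ⊓ C.V : Subgroup G) * Nat.card (A ⊓ C.V2 : Subgroup G) :=
    (hom_card B (A ⊓ C.V2) C.v0 h3 h3').trans (Nat.mul_le_mul_right _ (Subgroup.card_le_of_le h2))
  -- (5)
  have h5 : Nat.card A ≤ p * Nat.card B := idx hG C.V2 C.hV2card A
  by_cases hcase : C.V2 ≤ A
  · have hV2W : C.V2 ≤ A ⊓ C.V := le_inf hcase C.hV2V
    have hWle : Nat.card (A ⊓ C.V : Subgroup G) ≤ Nat.card C.V2 := by
      rw [hWi, C.hV2card]
      exact Nat.pow_le_pow_right hp0 hi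
    have hW : C.V2 = A ⊓ C.V := Subgroup.eq_of_le_of_card_ge hV2W hWle
    refine ⟨hW.symm, le_antisymm ?_ h4⟩
    have hAB : A ≤ B := by
      refine le_inf le_rfl ?_
      intro a ha
      rw [Subgroup.mem_centralizer_iff]
      intro w hw
      exact hA.1.1 w (hcase hw) a ha
    have hZ : A ⊓ C.V2 = C.V2 := inf_eq_right.mpr hcase
    rw [← hW, hZ, C.hV2card] at h4'
    calc Nat.card A ≤ Nat.card B := Subgroup.card_le_of_le hAB
      _ ≤ p ^ 2 * p ^ 2 := h4'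
      _ = p ^ 4 := by ring
  · exfalso
    have hZne : A ⊓ C.V2 ≠ C.V2 := fun h => hcase (inf_eq_right.mp h)
    obtain ⟨j, hj, hZj⟩ := f1_card_le (k := 1) inf_le_right hZne C.hV2card
    rw [hWi, hZj] at h4'
    have h6 : p ^ 4 ≤ p ^ (1 + (i + j)) := by
      calc p ^ 4 ≤ Nat.card A := h4
        _ ≤ p * Nat.card B := h5
        _ ≤ p * (p ^ i * p ^ j) := Nat.mul_le_mul_left _ h4'
        _ = p ^ (1 + (i + j)) := by ring
    have h7 : 4 ≤ 1 + (i + j) := (Nat.pow_le_pow_iff_right hp1).mp h6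
    have hi2 : i = 2 := by omega
    have hWV2 : ¬ (A ⊓ C.V ≤ C.V2) := by
      intro h
      have : A ⊓ C.V = C.V2 := Subgroup.eq_of_le_of_card_ge h (by rw [hWi, C.hV2card, hi2])
      exact hcase (this ▸ inf_le_left)
    have hBW : B ≤ A ⊓ C.V := by
      intro b hb
      refine Subgroup.mem_inf.mpr ⟨hBA hb, hmemV b (hBA hb) ?_⟩
      refine C.gen' (A ⊓ C.V) inf_le_right hWV2 b (hBc b hb) ?_
      intro w hw
      exact hA.1.1 b (hBA hb) w (Subgroup.mem_inf.mp hw).1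
    have h8 := Subgroup.card_le_of_le hBW
    rw [hWi, hi2] at h8
    have h9 : p ^ 4 ≤ p ^ 3 := by
      calc p ^ 4 ≤ Nat.card A := h4
        _ ≤ p * Nat.card B := h5
        _ ≤ p * p ^ 2 := Nat.mul_le_mul_left _ h8
        _ = p ^ 3 := by ring
    have := (Nat.pow_le_pow_iff_right hp1).mp h9
    omega

end Cfsg.Agent.Lib.Helper27.KJ4
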