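import Mathlib
import Cfsg.Agent.Lib.Helper3.ClassTwo
import Cfsg.Agent.Lib.Helper27.KJ4.Defs

/-! Ladder KJ4, rung POW (helper30). -/

set_option autoImplicit false

namespace Cfsg.Agent.Lib.Helper27.KJ4

open scoped commutatorElement

variable {G : Type*} [Group G]

theorem pow_eq_one {p : ℕ} (hp : p.Prime) (hp2 : p ≠ 2) {A A1 : Subgroup G} (hA : EA p A) (hA1 : EA p A1)
    (h1 : A1 ≤ Subgroup.normalizer (A : Set G)) (h2 : A ≤ Subgroup.normalizer (A1 : Set G)) (a : G) (ha : a ∈ A) (a1 : G) (ha1 : a1 ∈ A1) :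
    (a1 * a) ^ p = 1 := by
  have hcA : ⁅a⁻¹, a1⁻¹⁆ ∈ A := by
    have hn : a1⁻¹ ∈ Subgroup.normalizer (A : Set G) := h1 (A1.inv_mem ha1)
    have h3 : a1⁻¹ * a * a1⁻¹⁻¹ ∈ A := (Subgroup.mem_normalizer_iff.mp hn a).mp ha
    have e : ⁅a⁻¹, a1⁻¹⁆ = a⁻¹ * (a1⁻¹ * a * a1⁻¹⁻¹) := by
      rw [commutatorElement_def]; group
    rw [e]
    exact A.mul_mem (A.inv_mem ha) h3
  have hcA1 : ⁅a⁻¹, a1⁻¹⁆ ∈ A1 := by
    have hn : a⁻¹ ∈ Subgroup.normalizer (A1 : Set G) := h2 (A.inv_mem ha)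
    have h3 : a⁻¹ * a1⁻¹ * a⁻¹⁻¹ ∈ A1 := (Subgroup.mem_normalizer_iff.mp hn a1⁻¹).mp (A1.inv_mem ha1)
    have e : ⁅a⁻¹, a1⁻¹⁆ = (a⁻¹ * a1⁻¹ * a⁻¹⁻¹) * a1 := by
      rw [commutatorElement_def]; group
    rw [e]
    exact A1.mul_mem h3 ha1
  have hf := Cfsg.Agent.Lib.Helper3.mul_pow_of_central
    (Cfsg.Agent.Lib.Helper3.mul_eq_mul_mul_commutator a1 a)
    (hA1.1 _ hcA1 _ ha1) (hA.1 _ hcA _ ha) p
  rw [hf, hA1.2 _ ha1, hA.2 _ ha, one_mul, one_mul]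
  have hlt : 2 < p := lt_of_le_of_ne hp.two_le (Ne.symm hp2)
  obtain ⟨k, hk⟩ := hp.dvd_choose_self (by norm_num) hlt
  rw [hk, pow_mul, hA.2 _ hcA, one_pow]

end Cfsg.Agent.Lib.Helper27.KJ4
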