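import Mathlib
import Cfsg.Agent.Lib.Helper27.KJ4.Defs
import Cfsg.Agent.Lib.Helper27.KJ4.HOM
import Cfsg.Agent.Lib.Helper27.KJ4.GEN
import Cfsg.Agent.Lib.Helper27.KJ4.POW
import Cfsg.Agent.Lib.Helper27.KJ4.CNT

/-! Ladder KJ4, rung FIN (helper30). -/

set_option autoImplicit false

namespace Cfsg.Agent.Lib.Helper27.KJ4

open scoped commutatorElement

variable {G : Type*} [Group G]

theorem Ctx.fin [Finite G] {p : ℕ} [Fact p.Prime] (hp2 : p ≠ 2) (C : Ctx p G) {A A1 : Subgroup G}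
    (hA : EA p A) (hA1 : EA p A1) (hAV : A ⊓ C.V = C.V2) (hA1V : A1 ⊓ C.V = C.V2)
    (hAc : Nat.card A = p ^ 4) (hA1c : Nat.card A1 = p ^ 4)
    (h1 : A1 ≤ Subgroup.normalizer (A : Set G)) (h2 : A ≤ Subgroup.normalizer (A1 : Set G)) : A1 = A := by
  have hp : p.Prime := Fact.out
  have hp1 : 1 < p := hp.one_lt
  have hVn : C.V.Normal := C.hVn
  have hV2A : C.V2 ≤ A := hAV ▸ inf_le_left
  have hV2A1 : C.V2 ≤ A1 := hA1V ▸ inf_le_left
  -- elements of A centralizing v0 lie in V2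
  have hkey : ∀ x, x ^ p = 1 → (∀ w ∈ C.V2, x * w = w * x) → ∀ c ∈ C.V, c ∉ C.V2 → x * c = c * x →
      x ∈ C.V := fun x hx hw c hc hc' hxc => C.hAlp x (C.gen c hc hc' x hw hxc) hx
  have hcent : A ⊓ Subgroup.centralizer {C.v0} = C.V2 := by
    apply le_antisymm
    · intro x hx
      obtain ⟨hxA, hxv⟩ := Subgroup.mem_inf.mp hx
      have hxv' : x * C.v0 = C.v0 * x := (Subgroup.mem_centralizer_iff.mp hxv C.v0 rfl).symm
      have : x ∈ C.V := hkey x (hA.2 x hxA) (fun w hw => hA.1 x hxA w (hV2A hw)) C.v0 C.hv0 C.hv0' hxv'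
      exact hAV ▸ Subgroup.mem_inf.mpr ⟨hxA, this⟩
    · intro w hw
      refine Subgroup.mem_inf.mpr ⟨hV2A hw, ?_⟩
      rw [Subgroup.mem_centralizer_iff]
      intro y hy
      rw [Set.mem_singleton_iff] at hy
      subst hy
      exact C.hV.1 _ C.hv0 w (C.hV2V hw)
  have hsurj := hom_surj A C.V2 C.v0 (fun b _ => C.hv0c b)
    (fun b hb z hz => hA.1 b hb z (hV2A hz))
    (by rw [hcent, hAc, C.hV2card]; ring)
  -- (ii)
  have hii : ∀ a1 ∈ A1, ∃ a ∈ A, a⁻¹ * a1 ∈ C.V := by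
    intro a1 ha1
    obtain ⟨a, ha, hcomm⟩ := hsurj ⁅C.v0, a1⁆ (C.hv0c a1)
    refine ⟨a, ha, ?_⟩
    have hc0 : (a⁻¹ * a1) * C.v0 = C.v0 * (a⁻¹ * a1) := by
      rw [commutatorElement_def, commutatorElement_def] at hcomm
      have e1 : a * C.v0⁻¹ * a⁻¹ = a1 * C.v0⁻¹ * a1⁻¹ := by
        have := congrArg (fun t => C.v0⁻¹ * t) hcomm
        simpa [mul_assoc] using this
      have e2 : C.v0⁻¹ * (a⁻¹ * a1) = (a⁻¹ * a1) * C.v0⁻¹ := by
        have := congrArg (fun t => a⁻¹ * t * a1) e1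
        simpa [mul_assoc] using this
      have := congrArg (fun t => C.v0 * t * C.v0) e2
      simpa [mul_assoc] using this
    refine hkey _ ?_ ?_ C.v0 C.hv0 C.hv0' hc0
    · exact pow_eq_one hp hp2 hA1 hA h2 h1 a1 ha1 a⁻¹ (A.inv_mem ha)
    · intro w hw
      have e1 : a⁻¹ * w = w * a⁻¹ := hA.1 _ (A.inv_mem ha) w (hV2A hw)
      have e2 : a1 * w = w * a1 := hA1.1 _ ha1 w (hV2A1 hw)
      rw [mul_assoc, e2, ← mul_assoc, e1, mul_assoc]
  have hle : A1 ≤ A ⊔ C.V := by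
    intro a1 ha1
    obtain ⟨a, ha, hc⟩ := hii a1 ha1
    have : a1 = a * (a⁻¹ * a1) := by group
    rw [this]
    exact Subgroup.mul_mem_sup ha hc
  -- (iii)
  have hcnt := card_inf_ge A A1 C.V hle
  rw [hA1c, hAV, C.hV2card, C.hVcard] at hcnt
  have hd : ¬ (A ⊓ A1 ≤ C.V2) := by
    intro h
    have h3 := Subgroup.card_le_of_le h
    rw [C.hV2card] at h3
    have h4 : p ^ 6 ≤ p ^ 5 := by
      calc p ^ 6 = p ^ 4 * p ^ 2 := by ring
        _ ≤ Nat.card (A ⊓ A1 : Subgroup G) * p ^ 3 := hcnt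
        _ ≤ p ^ 2 * p ^ 3 := Nat.mul_le_mul_right _ h3
        _ = p ^ 5 := by ring
    have := (Nat.pow_le_pow_iff_right hp1).mp h4
    omega
  obtain ⟨d, hdm, hdV2⟩ := SetLike.not_le_iff_exists.mp hd
  obtain ⟨hdA, hdA1⟩ := Subgroup.mem_inf.mp hdm
  -- (iv)
  by_contra hne
  have hnle : ¬ A1 ≤ A := fun h => hne (Subgroup.eq_of_le_of_card_ge h (by rw [hAc, hA1c]))
  obtain ⟨a1, ha1, ha1A⟩ := SetLike.not_le_iff_exists.mp hnle
  obtain ⟨a, ha, hc⟩ := hii a1 ha1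
  have hcV2 : a⁻¹ * a1 ∉ C.V2 := by
    intro h
    apply ha1A
    have : a1 = a * (a⁻¹ * a1) := by group
    rw [this]
    exact A.mul_mem ha (hV2A h)
  have hdc : d * (a⁻¹ * a1) = (a⁻¹ * a1) * d := by
    have e1 : d * a⁻¹ = a⁻¹ * d := hA.1 d hdA _ (A.inv_mem ha)
    have e2 : d * a1 = a1 * d := hA1.1 d hdA1 _ ha1
    rw [← mul_assoc, e1, mul_assoc, e2, mul_assoc]
  have hdV : d ∈ C.V := hkey d (hA.2 d hdA) (fun w hw => hA.1 d hdA w (hV2A hw)) _ hc hcV2 hdc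
  exact hdV2 (hAV ▸ Subgroup.mem_inf.mpr ⟨hdA, hdV⟩)

end Cfsg.Agent.Lib.Helper27.KJ4
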