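import Mathlib
import Cfsg.Agent.Lib.Helper27.KJ4.Defs

/-! Ladder KJ4, rung FIX3 (helper27). -/

set_option autoImplicit false

namespace Cfsg.Agent.Lib.Helper27.KJ4

open scoped commutatorElement

variable {G : Type*} [Group G]

theorem fix3_add {M : Type*} [AddCommGroup M] (a b d : M) (hb : 3 • b = 0) (hd : 3 • d = 0) :
    a - d - (d - b) - (d - b - (b - a)) = 0 := by
  have h : a - d - (d - b) - (d - b - (b - a)) = 3 • b - 3 • d := by abel
  rw [h, hb, hd, sub_zero]

theorem fix3_mul {M : Type*} [CommGroup M] (a b d : M) (hb : b ^ 3 = 1) (hd : d ^ 3 = 1) :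
    a / d / (d / b) / (d / b / (b / a)) = 1 :=
  fix3_add (M := Additive M) (Additive.ofMul a) (Additive.ofMul b) (Additive.ofMul d) hb hd

theorem fix3_card {A B : Type*} [Group A] [Group B] [Finite A] (f : A →* B) :
    Nat.card A = Nat.card f.ker * Nat.card f.range := by
  rw [← Nat.card_congr (QuotientGroup.quotientKerEquivRange f).toEquiv, mul_comm]
  exact Subgroup.card_eq_card_quotient_mul_card_subgroup f.ker

/-- abstract version: an endomorphism-difference `φ = c / 1` with `c^3 = 1` on a commutative group of exponent 3. -/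
theorem fix3_abs {M : Type*} [CommGroup M] [Finite M] (hM : ∀ m : M, m ^ 3 = 1) (c : M →* M)
    (hc : ∀ m, c (c (c m)) = m) : Nat.card M ≤ Nat.card (c / MonoidHom.id M).ker ^ 3 := by
  set φ : M →* M := c / MonoidHom.id M with hφ
  have hφa : ∀ m, φ m = c m / m := fun m => by simp [hφ]
  have h3 : ∀ m, φ (φ (φ m)) = 1 := by
    intro m
    simp only [hφa, map_div, hc]
    exact fix3_mul m (c m) (c (c m)) (hM _) (hM _)
  have h1 := fix3_card φ
  set ψ : φ.range →* M := φ.comp φ.range.subtype with hψ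
  have h2 := fix3_card ψ
  have hk : Nat.card ψ.ker ≤ Nat.card φ.ker := by
    apply Nat.card_le_card_of_injective
      (fun x : ψ.ker => (⟨((x : φ.range) : M), by
        have := x.2
        rw [MonoidHom.mem_ker] at this ⊢
        exact this⟩ : φ.ker))
    intro x y hxy
    apply Subtype.ext
    apply Subtype.ext
    exact congrArg (fun z : φ.ker => (z : M)) hxy
  have hr : Nat.card ψ.range ≤ Nat.card φ.ker := by
    apply Subgroup.card_le_of_le
    rintro _ ⟨⟨_, ⟨m, rfl⟩⟩, rfl⟩
    rw [MonoidHom.mem_ker]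
    exact h3 m
  calc Nat.card M = Nat.card φ.ker * Nat.card φ.range := h1
    _ = Nat.card φ.ker * (Nat.card ψ.ker * Nat.card ψ.range) := by rw [h2]
    _ ≤ Nat.card φ.ker * (Nat.card φ.ker * Nat.card φ.ker) :=
        Nat.mul_le_mul_left _ (Nat.mul_le_mul hk hr)
    _ = Nat.card φ.ker ^ 3 := by ring

theorem card_fix_ge [Finite G] (U : Subgroup G) [U.Normal] (hU : EA 3 U) (hUc : Nat.card U = 81) (y : G)
    (hy : y ^ 3 = 1) : 9 ≤ Nat.card (U ⊓ Subgroup.centralizer {y} : Subgroup G) := by
  let _ : CommGroup U := { (inferInstance : Group U) with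
    mul_comm := fun a b => Subtype.ext (hU.1 a a.2 b b.2) }
  set c : U →* U := (MulAut.conjNormal y : U ≃* U).toMonoidHom with hc
  have hca : ∀ u : U, ((c u : U) : G) = y * u * y⁻¹ := fun u => by simp [hc]
  have h1 := fix3_abs (M := U) (fun m => Subtype.ext (hU.2 m m.2)) c (by
    intro m
    apply Subtype.ext
    rw [hca, hca, hca]
    have hy' : y⁻¹ * y⁻¹ * y⁻¹ = 1 := by
      rw [← inv_eq_one, mul_inv_rev, mul_inv_rev, inv_inv, ← mul_assoc, ← pow_three']
      simpa [pow_succ] using hy
    have hy3 : y * y * y = 1 := by simpa [pow_succ] using hy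
    calc y * (y * (y * m * y⁻¹) * y⁻¹) * y⁻¹ = (y * y * y) * m * (y⁻¹ * y⁻¹ * y⁻¹) := by group
      _ = m := by rw [hy3, hy']; simp)
  set K := (c / MonoidHom.id U).ker with hK
  have hle : K.map U.subtype ≤ U ⊓ Subgroup.centralizer {y} := by
    rintro _ ⟨u, hu, rfl⟩
    refine Subgroup.mem_inf.2 ⟨u.2, ?_⟩
    rw [Subgroup.mem_centralizer_singleton_iff]
    have h2 : c u / u = 1 := by simpa [hK, MonoidHom.mem_ker] using hu
    have h3 : c u = u := div_eq_one.1 h2
    have h4 := hca u
    rw [h3] at h4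
    have h5 : (u : G) * y = y * u := by
      calc (u : G) * y = (y * u * y⁻¹) * y := by rw [← h4]
        _ = y * u := by group
    simpa using h5
  have hcard : Nat.card K ≤ Nat.card (U ⊓ Subgroup.centralizer {y} : Subgroup G) := by
    have h6 : Nat.card (K.map U.subtype) = Nat.card K :=
      Subgroup.card_map_of_injective U.subtype_injective
    rw [← h6]
    exact Subgroup.card_le_of_le hle
  have hdvd : Nat.card K ∣ 81 := hUc ▸ Subgroup.card_subgroup_dvd_card K
  rw [hUc] at h1
  have h9 : 9 ≤ Nat.card K := by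
    have h81 : (81 : ℕ) = 3 ^ 4 := by norm_num
    rw [h81, Nat.dvd_prime_pow (by norm_num)] at hdvd
    obtain ⟨j, hj, hjk⟩ := hdvd
    rw [hjk] at h1 ⊢
    interval_cases j <;> simp_all
  exact h9.trans hcard

end Cfsg.Agent.Lib.Helper27.KJ4
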