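import Mathlib

/-! Ladder KJ4, rung NC (helper41). -/

set_option autoImplicit false

namespace Cfsg.Agent.Lib.Helper27.KJ4

variable {G : Type*} [Group G]

theorem nc_mem_map_conj (A : Subgroup G) (g h : G) :
    h ∈ A.map (MulAut.conj g).toMonoidHom ↔ g⁻¹ * h * g ∈ A := by
  constructor
  · rintro ⟨a, ha, rfl⟩
    have : g⁻¹ * (MulAut.conj g).toMonoidHom a * g = a := by
      simp [MulAut.conj_apply, mul_assoc]
    rw [this]
    exact ha
  · intro hh
    exact ⟨g⁻¹ * h * g, hh, by simp [MulAut.conj_apply, mul_assoc]⟩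

theorem exists_conj [Finite G] {p : ℕ} [Fact p.Prime] (hG : IsPGroup p G) (A : Subgroup G) (hA : ¬ A.Normal) :
    ∃ g : G, A.map (MulAut.conj g).toMonoidHom ≠ A ∧ A.map (MulAut.conj g).toMonoidHom ≤ Subgroup.normalizer (A : Set G) ∧
      A ≤ Subgroup.normalizer ((A.map (MulAut.conj g).toMonoidHom : Subgroup G) : Set G) := by
  have hnil : Group.IsNilpotent G := hG.isNilpotent
  have hN : Subgroup.normalizer (A : Set G) < ⊤ := by
    rw [lt_top_iff_ne_top]
    intro h
    exact hA (Subgroup.normalizer_eq_top_iff.1 h)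
  have hlt := Group.normalizerCondition_of_isNilpotent (G := G) _ hN
  obtain ⟨g, hg, hgN⟩ := SetLike.exists_of_lt hlt
  have hg1 := Subgroup.mem_normalizer_iff.1 hg
  refine ⟨g, ?_, ?_, ?_⟩
  · intro h
    apply hgN
    rw [Subgroup.mem_normalizer_iff]
    intro x
    constructor
    · intro hx
      rw [← h]
      exact ⟨x, hx, by simp [MulAut.conj_apply]⟩
    · intro hx
      rw [← h, nc_mem_map_conj] at hx
      have e : g⁻¹ * (g * x * g⁻¹) * g = x := by group
      rwa [e] at hx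
  · rintro _ ⟨a, ha, rfl⟩
    exact (hg1 a).1 (Subgroup.le_normalizer ha)
  · intro a ha
    have hn : g⁻¹ * a * g ∈ Subgroup.normalizer (A : Set G) := by
      rw [hg1]
      have e : g * (g⁻¹ * a * g) * g⁻¹ = a := by group
      rw [e]
      exact Subgroup.le_normalizer ha
    rw [Subgroup.mem_normalizer_iff]
    intro h
    have h3 := Subgroup.mem_normalizer_iff.1 hn (g⁻¹ * h * g)
    have e : g⁻¹ * a * g * (g⁻¹ * h * g) * (g⁻¹ * a * g)⁻¹ = g⁻¹ * (a * h * a⁻¹) * g := by group
    rw [e] at h3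
    show h ∈ A.map (MulAut.conj g).toMonoidHom ↔ a * h * a⁻¹ ∈ A.map (MulAut.conj g).toMonoidHom
    rw [nc_mem_map_conj, nc_mem_map_conj]
    exact h3

end Cfsg.Agent.Lib.Helper27.KJ4
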