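import Mathlib
import Cfsg.Agent.S0100
import Cfsg.Agent.Lib.Helper3.OmegaCentralizer
import Cfsg.Agent.Lib.Helper27.KJ4.Defs
import Cfsg.Agent.Lib.Helper27.KJ4.CONJ
import Cfsg.Agent.Lib.Helper27.KJ4.NC
import Cfsg.Agent.Lib.Helper27.KJ4.CTX
import Cfsg.Agent.Lib.Helper27.KJ4.F1
import Cfsg.Agent.Lib.Helper27.KJ4.FIN

/-! Ladder KJ4 (helper27): assembly of S0122. -/

set_option autoImplicit false

namespace Cfsg.Agent.Lib.Helper27.KJ4

open scoped commutatorElement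

variable {G : Type*} [Group G]

/-! ### MAIN (helper27) -/
theorem main [Finite G] {p : ℕ} [Fact p.Prime] (hp2 : p ≠ 2) (hG : IsPGroup p G) (E : Subgroup G)
    (hE : EA p E) (hE4 : Nat.card E = p ^ 4) :
    ∃ A : Subgroup G, A.Normal ∧ EA p A ∧ Nat.card A = p ^ 4 := by
  classical
  have hpp : p.Prime := Fact.out
  let S : Set (Subgroup G) := {A | A.Normal ∧ EA p A}
  have hSne : S.Nonempty := by
    refine ⟨⊥, inferInstance, ?_, ?_⟩
    · intro a ha b hb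
      rw [Subgroup.mem_bot] at ha hb
      rw [ha, hb]
    · intro a ha
      rw [Subgroup.mem_bot] at ha
      rw [ha, one_pow]
  obtain ⟨V, hVS, hVmax⟩ := Set.exists_max_image S (fun A => Nat.card A) (Set.toFinite S) hSne
  obtain ⟨hVn, hV⟩ := hVS
  obtain ⟨k, hk⟩ := (hG.to_subgroup V).exists_card_eq
  by_cases hk4 : 4 ≤ k
  · obtain ⟨A', hA'V, hA'n, hA'c⟩ := Cfsg.Agent.Lib.Helper3.exists_normal_le_card_eq (p := p) 4 G hG V hVn
      (by rw [hk]; exact pow_dvd_pow p hk4)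
    exact ⟨A', hA'n, ⟨fun a ha b hb => hV.1 a (hA'V ha) b (hA'V hb), fun a ha => hV.2 a (hA'V ha)⟩, hA'c⟩
  push Not at hk4
  have h3 : ∃ A : Subgroup G, A.Normal ∧ EA p A ∧ Nat.card A = p ^ 3 := by
    by_contra hcon
    push Not at hcon
    have h5 := Cfsg.Agent.S0100.result hp2 hG
      (fun A hAn hAc hAe hcard => hcon A hAn
        ⟨fun a ha b hb => congrArg Subtype.val (hAc.is_comm.comm ⟨a, ha⟩ ⟨b, hb⟩), hAe⟩ hcard)
      E ⟨⟨fun x y => Subtype.ext (hE.1 x x.2 y y.2)⟩⟩ hE.2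
    rw [hE4] at h5
    exact absurd h5 (not_le.2 (Nat.pow_lt_pow_right hpp.one_lt (by norm_num)))
  obtain ⟨V', hV'n, hV', hV'c⟩ := h3
  have hk3 : k = 3 := by
    have h5 : Nat.card V' ≤ Nat.card V := hVmax V' ⟨hV'n, hV'⟩
    rw [hV'c, hk] at h5
    have := (Nat.pow_le_pow_iff_right hpp.one_lt).1 h5
    omega
  subst hk3
  obtain ⟨C⟩ := exists_ctx hp2 hG V hVn hV hk (by
    intro B hBn hB hVB
    exact (Subgroup.eq_of_le_of_card_ge hVB (hVmax B ⟨hBn, hB⟩)).symm)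
  let T : Set (Subgroup G) := {A | EA p A}
  obtain ⟨A, hAT, hAmax⟩ := Set.exists_max_image T (fun A => Nat.card A) (Set.toFinite T) ⟨E, hE⟩
  have hA : MaxEA p A := ⟨hAT, fun B hB => hAmax B hB⟩
  have h4 : p ^ 4 ≤ Nat.card A := hE4 ▸ hAmax E hE
  obtain ⟨hAV, hAc⟩ := C.f1 hG hA h4
  by_cases hAn : A.Normal
  · exact ⟨A, hAn, hA.1, hAc⟩
  exfalso
  obtain ⟨g, hne, h1, h2⟩ := exists_conj hG A hAn
  have hA1 := hA.conj g
  have h41 : p ^ 4 ≤ Nat.card (A.map (MulAut.conj g).toMonoidHom) := hE4 ▸ hA1.2 E hE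
  obtain ⟨hA1V, hA1c⟩ := C.f1 hG hA1 h41
  exact hne (C.fin hp2 hA.1 hA1.1 hAV hA1V hAc hA1c h1 h2)

end Cfsg.Agent.Lib.Helper27.KJ4
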