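import Mathlib
import Cfsg.Agent.Lib.Helper3.PGroup
import Cfsg.Agent.Lib.Helper27.KJ4.Defs
import Cfsg.Agent.Lib.Helper27.KJ4.FIX3

/-! Ladder KJ4, rung RK3 (helper27). -/

set_option autoImplicit false

namespace Cfsg.Agent.Lib.Helper27.KJ4

open scoped commutatorElement

variable {G : Type*} [Group G]

/-- the join of two commuting elementary abelian subgroups is elementary abelian -/
theorem rk3_EA_sup {p : ℕ} {X D : Subgroup G} (hX : EA p X) (hD : EA p D)
    (hXD : ∀ x ∈ X, ∀ d ∈ D, x * d = d * x) : EA p (X ⊔ D) := by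
  have h1 : X ⊔ D ≤ Subgroup.centralizer ((X : Set G) ∪ D) := by
    refine sup_le ?_ ?_
    · intro x hx
      rw [Subgroup.mem_centralizer_iff]
      rintro w (hw | hw)
      · exact hX.1 w hw x hx
      · exact (hXD x hx w hw).symm
    · intro d hd
      rw [Subgroup.mem_centralizer_iff]
      rintro w (hw | hw)
      · exact hXD w hw d hd
      · exact hD.1 w hw d hd
  have h2 : X ⊔ D ≤ Subgroup.centralizer ((X ⊔ D : Subgroup G) : Set G) := by
    refine sup_le ?_ ?_
    · intro x hx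
      rw [Subgroup.mem_centralizer_iff]
      intro w hw
      exact ((Subgroup.mem_centralizer_iff.1 (h1 hw)) x (Or.inl hx)).symm
    · intro d hd
      rw [Subgroup.mem_centralizer_iff]
      intro w hw
      exact ((Subgroup.mem_centralizer_iff.1 (h1 hw)) d (Or.inr hd)).symm
  have hcomm : ∀ a ∈ X ⊔ D, ∀ b ∈ X ⊔ D, a * b = b * a := fun a ha b hb =>
    (Subgroup.mem_centralizer_iff.1 (h2 hb)) a ha
  refine ⟨hcomm, ?_⟩
  intro a ha
  rw [Subgroup.sup_eq_closure] at ha
  induction ha using Subgroup.closure_induction with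
  | mem x hx =>
    rcases hx with hx | hx
    · exact hX.2 x hx
    · exact hD.2 x hx
  | one => simp
  | mul x y hx hy ihx ihy =>
    rw [← Subgroup.sup_eq_closure] at hx hy
    have : Commute x y := hcomm x hx y hy
    rw [this.mul_pow, ihx, ihy, one_mul]
  | inv x _ ih => rw [inv_pow, ih, inv_one]

theorem rk3_card_lt [Finite G] {H K : Subgroup G} (h : H ≤ K) (x : G) (hx : x ∈ K) (hx' : x ∉ H) :
    Nat.card H < Nat.card K := by
  rcases lt_or_eq_of_le (Subgroup.card_le_of_le h) with h1 | h1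
  · exact h1
  · exact absurd ((Subgroup.eq_of_le_of_card_ge h h1.ge) ▸ hx) hx'

theorem exists_rank3 [Finite G] (hG : IsPGroup 3 G) (U : Subgroup G) [U.Normal] (hU : EA 3 U)
    (hUc : Nat.card U = 81) (X : Subgroup G) (hX : EA 3 X) (hXc : 9 ≤ Nat.card X) :
    ∃ Y : Subgroup G, EA 3 Y ∧ X ≤ Y ∧ 27 ≤ Nat.card Y := by
  have : Fact (Nat.Prime 3) := ⟨by norm_num⟩
  by_cases h27 : 27 ≤ Nat.card X
  · exact ⟨X, hX, le_rfl, h27⟩
  push Not at h27
  -- powers of three
  have hpow : ∀ H : Subgroup G, ∀ n : ℕ, 3 ^ n < Nat.card H → 3 ^ (n + 1) ≤ Nat.card H := by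
    intro H n hn
    obtain ⟨k, hk⟩ := (hG.to_subgroup H).exists_card_eq
    rw [hk] at hn ⊢
    exact Nat.pow_le_pow_right (by norm_num) ((Nat.pow_lt_pow_iff_right (by norm_num)).1 hn)
  have hX9 : Nat.card X ≤ 9 := by
    by_contra hc
    push Not at hc
    have := hpow X 2 (by simpa using hc)
    omega
  set D : Subgroup G := U ⊓ Subgroup.centralizer (X : Set G) with hD
  have hDEA : EA 3 D := ⟨fun a ha b hb => hU.1 a ha.1 b hb.1, fun a ha => hU.2 a ha.1⟩
  have hXD : ∀ x ∈ X, ∀ d ∈ D, x * d = d * x := fun x hx d hd =>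
    (Subgroup.mem_centralizer_iff.1 hd.2) x hx
  suffices hex : ∃ d ∈ D, d ∉ X by
    obtain ⟨d, hd, hdX⟩ := hex
    refine ⟨X ⊔ D, rk3_EA_sup hX hDEA hXD, le_sup_left, ?_⟩
    have h1 : Nat.card X < Nat.card (X ⊔ D : Subgroup G) :=
      rk3_card_lt le_sup_left d (Subgroup.mem_sup_right hd) hdX
    exact hpow _ 2 (lt_of_le_of_lt hXc h1)
  by_cases hXU : X ≤ U
  · -- D = U
    have hUD : U ≤ D := fun u hu => ⟨hu, Subgroup.mem_centralizer_iff.2 fun x hx => hU.1 x (hXU hx) u hu⟩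
    by_contra hcon
    push Not at hcon
    have h1 : U ≤ X := fun u hu => hcon u (hUD hu)
    have := Subgroup.card_le_of_le h1
    omega
  obtain ⟨y, hyX, hyU⟩ := SetLike.not_le_iff_exists.1 hXU
  by_cases hbot : X ⊓ U = ⊥
  · have hUne : U ≠ ⊥ := by
      intro h
      rw [h, Subgroup.card_bot] at hUc
      omega
    have h1 := Cfsg.Agent.Lib.Helper3.normal_inf_center_ne_bot' hG U hUne
    obtain ⟨⟨z, hz⟩, hz1⟩ := (Subgroup.ne_bot_iff_exists_ne_one).1 h1
    refine ⟨z, ⟨hz.1, Subgroup.mem_centralizer_iff.2 fun x _ =>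
      (Subgroup.mem_center_iff.1 hz.2 x)⟩, ?_⟩
    intro hzX
    have h2 : z ∈ X ⊓ U := ⟨hzX, hz.1⟩
    rw [hbot, Subgroup.mem_bot] at h2
    exact hz1 (Subtype.ext h2)
  · -- X ⊓ U nontrivial
    have h9 := card_fix_ge U hU hUc y (hX.2 y hyX)
    have hlt : Nat.card (X ⊓ U : Subgroup G) < Nat.card X := rk3_card_lt inf_le_left y hyX (fun h => hyU h.2)
    have hex : ∃ d ∈ U ⊓ Subgroup.centralizer {y}, d ∉ X := by
      by_contra hcon
      push Not at hcon
      have h1 : U ⊓ Subgroup.centralizer {y} ≤ X ⊓ U := fun u hu => ⟨hcon u hu, hu.1⟩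
      have := Subgroup.card_le_of_le h1
      omega
    obtain ⟨d, hd, hdX⟩ := hex
    refine ⟨d, Subgroup.mem_inf.2 ⟨hd.1, ?_⟩, hdX⟩
    -- T = X ⊓ C(d) is all of X
    set T : Subgroup G := X ⊓ Subgroup.centralizer {d} with hT
    have hyd : y ∈ T := by
      refine ⟨hyX, ?_⟩
      have := Subgroup.mem_centralizer_singleton_iff.1 hd.2
      exact Subgroup.mem_centralizer_singleton_iff.2 this.symm
    have hle : X ⊓ U ≤ T := fun w hw =>
      ⟨hw.1, Subgroup.mem_centralizer_singleton_iff.2 (hU.1 w hw.2 d hd.1)⟩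
    have h1 : Nat.card (X ⊓ U : Subgroup G) < Nat.card T := rk3_card_lt hle y hyd (fun h => hyU h.2)
    have h3 : 3 ^ 1 ≤ Nat.card (X ⊓ U : Subgroup G) := by
      apply hpow _ 0
      rw [pow_zero]
      exact (Subgroup.one_lt_card_iff_ne_bot _).2 hbot
    have h4 : 3 ^ 2 ≤ Nat.card T := hpow _ 1 (lt_of_le_of_lt h3 h1)
    have hTX : T = X := Subgroup.eq_of_le_of_card_ge inf_le_left (by omega)
    rw [Subgroup.mem_centralizer_iff]
    intro x hx
    have hxT : x ∈ T := hTX ▸ hx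
    exact (Subgroup.mem_centralizer_singleton_iff.1 hxT.2)

end Cfsg.Agent.Lib.Helper27.KJ4
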